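import Cfsg.Prelude.Def_AxialAlgebras

/-! MJ.A: Majorana axes, Sakuma's relation. -/

namespace MJ

open Cfsg.Axial

variable {V : Type*} [AddCommGroup V] [Module ℝ V] {mul : V →ₗ[ℝ] V →ₗ[ℝ] V} {B : LinearMap.BilinForm ℝ V}
  {μ μ' : V ≃ₗ[ℝ] V} {a : V}

structure Ax (mul : V →ₗ[ℝ] V →ₗ[ℝ] V) (B : LinearMap.BilinForm ℝ V) (μ : V ≃ₗ[ℝ] V) (a : V) : Prop where
  hm : ∀ u v, μ (mul u v) = mul (μ u) (μ v)
  hb : ∀ u v, B (μ u) (μ v) = B u v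
  id : mul a a = a
  n1 : B a a = 1
  dec : ∀ x, ∃ (t : ℝ) (α β γ : V), x = t • a + α + β + γ ∧ mul a α = 0 ∧ mul a β = (1 / 4 : ℝ) • β ∧
    mul a γ = (1 / 32 : ℝ) • γ
  f1 : μ a = a
  f0 : ∀ v, mul a v = 0 → μ v = v
  f4 : ∀ v, mul a v = (1 / 4 : ℝ) • v → μ v = v
  neg : ∀ v, mul a v = (1 / 32 : ℝ) • v → μ v = -v

def Fus (mul : V →ₗ[ℝ] V →ₗ[ℝ] V) (a : V) : Prop := ∀ α β, mul a α = 0 → mul a β = (1 / 4 : ℝ) • β →
  mul a (mul α α) = 0 ∧ mul a (mul α β) = (1 / 4 : ℝ) • mul α β ∧ ∃ t : ℝ, mul a (mul β β) = t • a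

theorem mem_eigen {c : ℝ} {v : V} : v ∈ eigen mul a c ↔ mul a v = c • v := Module.End.mem_eigenspace_iff

theorem ax_of (h : IsMajoranaPair mul B μ a) (h1 : B a a = 1) : Ax mul B μ a := by
  obtain ⟨a1, a2, ⟨⟨-, a3, a4, -⟩, a5⟩, a6, a7⟩ := h
  have k : ∀ c ∈ ({1, 0, 1 / 4} : Set ℝ), ∀ v, mul a v = c • v → μ v = v := fun c hc v hv =>
    a6 v (Submodule.mem_iSup_of_mem c (Submodule.mem_iSup_of_mem hc (mem_eigen.2 hv)))
  refine ⟨a1, a2, a3, h1, fun x => ?_, k 1 (by simp) a (by rw [a3, one_smul]), fun v hv => k 0 (by simp) v (by simpa),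
    k _ (by simp), fun v hv => a7 v (mem_eigen.2 hv)⟩
  have := a4.ge (Submodule.mem_top (x := x))
  rw [eigenSum, majoranaSpectrum, iSup_insert, iSup_insert, iSup_pair, a5] at this
  obtain ⟨y, hy, z, hz, rfl⟩ := Submodule.mem_sup.1 this
  obtain ⟨α, b1, w, hw, rfl⟩ := Submodule.mem_sup.1 hz
  obtain ⟨β, b2, γ, b3, rfl⟩ := Submodule.mem_sup.1 hw
  obtain ⟨t, rfl⟩ := Submodule.mem_span_singleton.1 hy
  exact ⟨t, α, β, γ, by abel, by simpa using mem_eigen.1 b1, mem_eigen.1 b2, mem_eigen.1 b3⟩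

theorem fus_of (h : IsMajoranaPair mul B μ a) : Fus mul a := fun α β h1 h2 => by
  obtain ⟨-, -, ⟨⟨-, a3, -, a4⟩, a5⟩, -⟩ := h
  have b1 : α ∈ eigen mul a 0 := mem_eigen.2 (by simpa)
  have c1 := a4 0 (by simp [majoranaSpectrum]) 0 (by simp [majoranaSpectrum]) _ b1 _ b1
  have c2 := a4 0 (by simp [majoranaSpectrum]) (1 / 4) (by simp [majoranaSpectrum]) _ b1 _ (mem_eigen.2 h2)
  have c3 := a4 (1 / 4) (by simp [majoranaSpectrum]) (1 / 4) (by simp [majoranaSpectrum]) _ (mem_eigen.2 h2) _ (mem_eigen.2 h2)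
  rw [show monsterLaw (1 / 4 : ℝ) (1 / 32) 0 0 = {0} by unfold monsterLaw; norm_num, eigenSum, iSup_singleton] at c1
  rw [show monsterLaw (1 / 4 : ℝ) (1 / 32) 0 (1 / 4) = {1 / 4} by unfold monsterLaw; norm_num, eigenSum, iSup_singleton] at c2
  rw [show monsterLaw (1 / 4 : ℝ) (1 / 32) (1 / 4) (1 / 4) = {1, 0} by unfold monsterLaw; norm_num, eigenSum, iSup_pair,
    a5] at c3
  obtain ⟨y, hy, z, hz, e⟩ := Submodule.mem_sup.1 c3
  obtain ⟨t, rfl⟩ := Submodule.mem_span_singleton.1 hy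
  exact ⟨by simpa using mem_eigen.1 c1, mem_eigen.1 c2, t, by rw [← e, map_add, mem_eigen.1 hz, map_smul, a3]; simp⟩

theorem Ax.inv (h : Ax mul B μ a) (x : V) : μ (μ x) = x := by
  obtain ⟨t, α, β, γ, rfl, b1, b2, b3⟩ := h.dec x
  simp [h.f1, h.f0 α b1, h.f4 β b2, h.neg γ b3]

theorem Ax.uniq (h : Ax mul B μ a) (h' : Ax mul B μ' a) : μ = μ' := LinearEquiv.ext fun x => by
  obtain ⟨t, α, β, γ, rfl, b1, b2, b3⟩ := h.dec x
  simp [h.f1, h.f0 α b1, h.f4 β b2, h.neg γ b3, h'.f1, h'.f0 α b1, h'.f4 β b2, h'.neg γ b3]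

theorem Ax.conj {b : V} (g : Ax mul B μ' b) (h : Ax mul B μ a) : Ax mul B (μ' * μ * μ') (μ' a) := by
  have k : ∀ v, mul a (μ' v) = μ' (mul (μ' a) v) := fun v => by rw [g.hm, g.inv]
  refine ⟨fun u v => ?_, fun u v => ?_, by rw [← g.hm, h.id], by rw [g.hb, h.n1], fun x => ?_, ?_, fun v e => ?_,
    fun v e => ?_, fun v e => ?_⟩ <;> try simp only [LinearEquiv.mul_apply]
  · rw [g.hm, h.hm, g.hm]
  · rw [g.hb, h.hb, g.hb]
  · obtain ⟨t, α, β, γ, e, b1, b2, b3⟩ := h.dec (μ' x)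
    exact ⟨t, μ' α, μ' β, μ' γ, by rw [← g.inv x, e]; simp, by rw [← g.hm, b1, map_zero], by rw [← g.hm, b2, map_smul],
      by rw [← g.hm, b3, map_smul]⟩
  · rw [g.inv, h.f1]
  · rw [h.f0 _ (by rw [k, e, map_zero]), g.inv]
  · rw [h.f4 _ (by rw [k, e, map_smul]), g.inv]
  · rw [h.neg _ (by rw [k, e, map_smul]), map_neg, g.inv]

variable (hV : IsMajoranaAmbient mul B)
include hV

theorem orth {u v : V} {c d : ℝ} (h1 : mul a u = c • u) (h2 : mul a v = d • v) (h : c ≠ d) : B u v = 0 := by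
  have := hV.2.2.2.1 u a v
  rw [h2, hV.1 u a, h1] at this
  simp only [map_smul, LinearMap.smul_apply, smul_eq_mul] at this
  exact (mul_eq_mul_right_iff.1 this).resolve_left h.symm

theorem Ax.dec' (h : Ax mul B μ a) (x : V) : ∃ α β γ : V, x = B a x • a + α + β + γ ∧ mul a α = 0 ∧
    mul a β = (1 / 4 : ℝ) • β ∧ mul a γ = (1 / 32 : ℝ) • γ := by
  obtain ⟨t, α, β, γ, e, b1, b2, b3⟩ := h.dec x
  have k : mul a a = (1 : ℝ) • a := by rw [h.id, one_smul]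
  refine ⟨α, β, γ, ?_, b1, b2, b3⟩
  rwa [show B a x = t by rw [e]; simp [h.n1, orth hV k b2, orth hV k b3, orth hV k (b1.trans (zero_smul ℝ α).symm)]]

theorem Ax.bound {x : V} (h : Ax mul B μ a) (h1 : mul x x = x) (h2 : B x x = 1) (h3 : a ≠ x) :
    0 ≤ B a x ∧ B a x ≤ 1 / 3 := by
  obtain ⟨α, β, γ, e, b1, b2, b3⟩ := h.dec' hV x
  have k : mul a a = (1 : ℝ) • a := by rw [h.id, one_smul]
  replace b1 := b1.trans (zero_smul ℝ α).symm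
  have p : ∀ u, 0 ≤ B u u := fun u => by
    by_cases e : u = 0
    · simp [e]
    · exact (hV.2.2.1 u e).le
  have h4 := hV.2.2.1 _ (sub_ne_zero.2 h3)
  have h5 := hV.2.2.2.1 a x x
  rw [h1] at h5
  simp only [map_sub, LinearMap.sub_apply, h.n1, h2, hV.2.1 x a] at h4
  generalize B a x = l at *
  rw [e] at h2 h5
  simp only [map_add, map_smul, LinearMap.add_apply, LinearMap.smul_apply, smul_eq_mul, k, b1, b2, b3, h.n1,
    orth hV k b1 (by norm_num), orth hV k b2 (by norm_num), orth hV k b3 (by norm_num), orth hV b1 k (by norm_num),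
    orth hV b2 k (by norm_num), orth hV b3 k (by norm_num), orth hV b1 b2 (by norm_num), orth hV b1 b3 (by norm_num),
    orth hV b2 b1 (by norm_num), orth hV b2 b3 (by norm_num), orth hV b3 b1 (by norm_num),
    orth hV b3 b2 (by norm_num)] at h2 h5
  have := p α
  have := p β
  have := p γ
  constructor <;> nlinarith

theorem Ax.parts {x s : V} (h : Ax mul B μ a) (hs : mul a x = s + (1 / 32 : ℝ) • (a + x)) :
    μ s = s ∧ mul a (μ x) = s + (1 / 32 : ℝ) • (a + μ x) ∧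
    mul a s = (7 / 32 : ℝ) • s + (3 / 4 * B a x - 25 / 1024) • a + (7 / 2048 : ℝ) • (x + μ x) ∧
    mul a ((-4 : ℝ) • s + (3 * B a x - 1 / 8) • a + (7 / 16 : ℝ) • (x + μ x)) = 0 ∧
    mul a ((4 : ℝ) • s + (1 / 8 - 4 * B a x) • a + (1 / 16 : ℝ) • (x + μ x)) =
      (1 / 4 : ℝ) • ((4 : ℝ) • s + (1 / 8 - 4 * B a x) • a + (1 / 16 : ℝ) • (x + μ x)) := by
  obtain ⟨α, β, γ, e, b1, b2, b3⟩ := h.dec' hV x
  generalize B a x = l at *
  obtain rfl := sub_eq_iff_eq_add.2 hs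
  subst e
  simp only [map_add, map_sub, map_smul, map_neg, h.id, b1, b2, b3, h.f1, h.f0 α b1, h.f4 β b2, h.neg γ b3, map_zero]
  refine ⟨?_, ?_, ?_, ?_, ?_⟩ <;> module

theorem rel {μ₀ μ₁ : V ≃ₗ[ℝ] V} {b : V} (h₀ : Ax mul B μ₀ a) (h₁ : Ax mul B μ₁ b) (hf : Fus mul a) :
    ∃ x y : ℝ, μ₁ (μ₀ (μ₁ a)) - μ₀ (μ₁ a) + x • (μ₁ (μ₀ b) - μ₀ b) + y • (μ₁ a - a) = 0 := by
  obtain ⟨s, hs⟩ : ∃ s, mul a b = s + (1 / 32 : ℝ) • (a + b) := ⟨_, (sub_add_cancel _ _).symm⟩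
  obtain ⟨p, hp⟩ : ∃ s, mul a (μ₁ a) = s + (1 / 32 : ℝ) • (a + μ₁ a) := ⟨_, (sub_add_cancel _ _).symm⟩
  obtain ⟨q, hq⟩ : ∃ s, mul b (μ₀ b) = s + (1 / 32 : ℝ) • (b + μ₀ b) := ⟨_, (sub_add_cancel _ _).symm⟩
  obtain ⟨s0, t1, t2, e1, e2⟩ := h₀.parts hV hs
  obtain ⟨s1, -, t3, -⟩ := h₁.parts hV (by rw [hV.1, hs, add_comm a])
  obtain ⟨-, t4, -⟩ := h₀.parts hV hp
  obtain ⟨q1, -⟩ := h₁.parts hV hq
  have p1 : μ₁ p = p := by
    rw [← sub_eq_iff_eq_add.2 hp, map_sub, h₁.hm, map_smul, map_add, h₁.inv, hV.1, add_comm]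
  have t5 := congrArg μ₀ t3
  have t6 : mul (μ₀ b) (μ₀ b) = μ₀ b := by rw [← h₀.hm, h₁.id]
  have t7 : μ₁ (mul s s) = mul s s := by rw [h₁.hm, s1]
  simp only [h₀.hm, map_add, map_smul, s0, h₀.f1] at t5
  rw [hV.2.1 b a] at t3 t5
  obtain ⟨f1, f2, t, f3⟩ := hf _ _ e1 e2
  generalize B a b = l at *
  have E : ∀ α β : V, mul a (mul α α) = 0 → mul a (mul α β) = (1 / 4 : ℝ) • mul α β → mul a (mul β β) = t • a →
      mul a (mul (α - (7 : ℝ) • β) (α + β)) = (-3 / 2 : ℝ) • mul α β - (7 * t) • a := fun α β a1 a2 a3 => by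
    simp only [map_add, map_sub, map_smul, LinearMap.sub_apply, LinearMap.smul_apply, hV.1 β α, a1, a2, a3]
    module
  replace E := E _ _ f1 f2 f3
  rw [show (-4 : ℝ) • s + (3 * l - 1 / 8) • a + (7 / 16 : ℝ) • (b + μ₀ b) - (7 : ℝ) • ((4 : ℝ) • s + (1 / 8 - 4 * l) • a +
      (1 / 16 : ℝ) • (b + μ₀ b)) = (-32 : ℝ) • s + (31 * l - 1) • a by module,
    show (-4 : ℝ) • s + (3 * l - 1 / 8) • a + (7 / 16 : ℝ) • (b + μ₀ b) + ((4 : ℝ) • s + (1 / 8 - 4 * l) • a +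
      (1 / 16 : ℝ) • (b + μ₀ b)) = (1 / 2 : ℝ) • (b + μ₀ b) + (-l) • a by module] at E
  simp only [map_add, map_smul, LinearMap.add_apply, LinearMap.smul_apply, hV.1 s a, hV.1 s b, hV.1 s (μ₀ b),
    hV.1 b a, hV.1 (μ₀ b) a, hV.1 (μ₀ b) b, hs, hp, hq, t1, t2, t3, t4, t5, t6, h₀.id, h₁.id] at E
  have E' := congrArg μ₁ E
  simp only [map_add, map_sub, map_smul, s1, p1, q1, t7, h₁.f1, h₁.inv] at E'
  refine ⟨8192 / 49 * (49 / 32 * l - 245 / 8192), 8192 / 49 * (35 * l ^ 2 - 119 / 16 * l + 441 / 4096 + 7 * t) - 1, ?_⟩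
  linear_combination (norm := module) (8192 / 49 : ℝ) • (E' - E)

end MJ
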